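import Mathlib
import Cfsg.Agent.Lib.Helper71.JC.JCFour

set_option autoImplicit false

/-!
# KS12: the dichotomy lemma (helper72)

Step 5.3 of the `T = S` analysis for S2951 / S2952 (helper34's plan): for a family `W i` of
pairwise commuting, independent four-groups permuted by `L`, with `C_G(u) ≤ L` for every
nontrivial `u ∈ U := ⨆ i, W i` and `U` a TI-set controlled by `L`, a conjugate `U^n`
(`n ∉ L`) meeting `L` nontrivially commutes with `U`.
-/

namespace Cfsg.Agent.Lib.Helper72.KS12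

open Cfsg.Agent.Lib.Helper71.JC

universe u v
variable {G : Type u} [Group G]

theorem comm_of_sq {U : Subgroup G} (hU : ∀ u ∈ U, u * u = 1) {a b : G} (ha : a ∈ U)
    (hb : b ∈ U) : a * b = b * a := by
  calc a * b = (a * b)⁻¹ := (inv_eq_self_of_sq (hU _ (U.mul_mem ha hb))).symm
    _ = b⁻¹ * a⁻¹ := mul_inv_rev a b
    _ = b * a := by rw [inv_eq_self_of_sq (hU a ha), inv_eq_self_of_sq (hU b hb)]

theorem conj_mem_map_conj {W : Subgroup G} (l : G) {w : G} (hw : w ∈ W) :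
    l * w * l⁻¹ ∈ W.map (MulAut.conj l).toMonoidHom :=
  ⟨w, hw, by simp [MulAut.conj_apply]⟩

theorem conj_mem_iSup_of_perm {ι : Type v} {W : ι → Subgroup G} {l : G}
    (h : ∀ i, ∃ j, (W i).map (MulAut.conj l).toMonoidHom = W j) {a : G} (ha : a ∈ ⨆ i, W i) :
    l * a * l⁻¹ ∈ ⨆ i, W i := by
  have h1 : (⨆ i, W i).map (MulAut.conj l).toMonoidHom ≤ ⨆ i, W i := by
    rw [Subgroup.map_iSup]
    refine iSup_le fun i => ?_
    obtain ⟨j, hj⟩ := h i
    rw [hj]; exact le_iSup W j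
  exact h1 (conj_mem_map_conj l ha)

theorem comm_of_conj_eq {t a : G} (h : t * a * t⁻¹ = a) : a * t = t * a := by
  calc a * t = (t * a * t⁻¹) * t := by rw [h]
    _ = t * a := by group

theorem conj_conj_of_sq {t a : G} (ht : t * t = 1) : t * (t * a * t⁻¹) * t⁻¹ = a := by
  rw [inv_eq_self_of_sq ht]
  calc t * (t * a * t) * t = (t * t) * a * (t * t) := by group
    _ = a := by rw [ht]; group

theorem exists_two_of_card_four {W : Subgroup G} (hW4 : Nat.card W = 4) :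
    ∃ a ∈ W, ∃ b ∈ W, a ≠ 1 ∧ b ≠ 1 ∧ a ≠ b := by
  classical
  have : Finite W := Nat.finite_of_card_ne_zero (by omega)
  let _ : Fintype W := Fintype.ofFinite W
  have h2 : 2 < Fintype.card W := by rw [← Nat.card_eq_fintype_card, hW4]; norm_num
  obtain ⟨a, b, c, hab, hac, hbc⟩ := Fintype.two_lt_card_iff.mp h2
  have hco : ∀ x y : W, x ≠ y → (x : G) ≠ (y : G) := fun x y h h' => h (Subtype.ext h')
  have hone : ∀ x : W, x ≠ 1 → (x : G) ≠ 1 := fun x h h' => h (Subtype.ext h')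
  by_cases ha : a = 1
  · refine ⟨b, b.2, c, c.2, hone b ?_, hone c ?_, hco b c hbc⟩
    · rw [ha] at hab; exact Ne.symm hab
    · rw [ha] at hac; exact Ne.symm hac
  · by_cases hb : b = 1
    · refine ⟨a, a.2, c, c.2, hone a ha, hone c ?_, hco a c hac⟩
      rw [hb] at hbc; exact Ne.symm hbc
    · exact ⟨a, a.2, b, b.2, hone a ha, hone b hb, hco a b hab⟩

/-- The join of pairwise commuting subgroups of exponent 2 is commutative of exponent 2. -/
theorem iSup_comm_sq {ι : Type v} {W : ι → Subgroup G} (hW2 : ∀ i, ∀ w ∈ W i, w * w = 1)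
    (hcomm : ∀ i j, i ≠ j → ∀ a ∈ W i, ∀ b ∈ W j, a * b = b * a) :
    (∀ a ∈ ⨆ i, W i, ∀ b ∈ ⨆ i, W i, a * b = b * a) ∧ ∀ a ∈ ⨆ i, W i, a * a = 1 := by
  classical
  have h0 : ∀ i j, ∀ a ∈ W i, ∀ b ∈ W j, a * b = b * a := by
    intro i j a ha b hb
    by_cases hij : i = j
    · subst hij; exact comm_of_sq (hW2 i) ha hb
    · exact hcomm i j hij a ha b hb
  have h1 : ∀ a ∈ ⨆ i, W i, ∀ b ∈ ⨆ i, W i, a * b = b * a := by
    intro a ha b hb
    have hle : (⨆ i, W i) ≤ Subgroup.centralizer ((⨆ i, W i : Subgroup G) : Set G) := by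
      refine iSup_le fun i => ?_
      intro w hw
      rw [Subgroup.mem_centralizer_iff]
      intro y hy
      have hle2 : (⨆ j, W j) ≤ Subgroup.centralizer ({w} : Set G) := by
        refine iSup_le fun j => ?_
        intro z hz
        rw [Subgroup.mem_centralizer_iff]
        intro w' hw'
        rw [Set.mem_singleton_iff] at hw'
        subst hw'
        exact h0 i j w' hw z hz
      have := Subgroup.mem_centralizer_iff.mp (hle2 hy) w (Set.mem_singleton w)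
      exact this.symm
    have := Subgroup.mem_centralizer_iff.mp (hle ha) b hb
    exact this.symm
  refine ⟨h1, ?_⟩
  intro a ha
  have key : a ∈ (⨆ i, W i) ∧ a * a = 1 := by
    refine Subgroup.iSup_induction W (C := fun x => x ∈ (⨆ i, W i) ∧ x * x = 1) ha ?_ ?_ ?_
    · intro i x hx
      exact ⟨le_iSup W i hx, hW2 i x hx⟩
    · exact ⟨Subgroup.one_mem _, by group⟩
    · rintro x y ⟨hx, hx2⟩ ⟨hy, hy2⟩
      refine ⟨Subgroup.mul_mem _ hx hy, ?_⟩
      calc x * y * (x * y) = x * (y * x) * y := by group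
        _ = x * (x * y) * y := by rw [h1 y hy x hx]
        _ = (x * x) * (y * y) := by group
        _ = 1 := by rw [hx2, hy2, one_mul]
  exact key.2

/-- The HALF lemma: two systems. -/
theorem dich_half {ι : Type v} (W : ι → Subgroup G) (L1 L2 U2 : Subgroup G)
    (hW4 : ∀ i, Nat.card ↥(W i) = 4) (hW2 : ∀ i, ∀ w ∈ W i, w * w = 1)
    (hcomm : ∀ i j, i ≠ j → ∀ a ∈ W i, ∀ b ∈ W j, a * b = b * a)
    (hind : iSupIndep W)
    (hperm : ∀ l ∈ L1, ∀ i, ∃ j, (W i).map (MulAut.conj l).toMonoidHom = W j)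
    (hU2 : ∀ u ∈ U2, u * u = 1)
    (hnorm2 : ∀ l ∈ L2, ∀ u ∈ U2, l * u * l⁻¹ ∈ U2)
    (hdisj : ∀ u ∈ ⨆ i, W i, u ∈ U2 → u = 1)
    (hC : ∀ u ∈ U2, u ≠ 1 → ∀ a ∈ ⨆ i, W i, a * u = u * a → a ∈ L2)
    (u1 u2 : G) (h1 : u1 ∈ U2) (h1L : u1 ∈ L1) (h2 : u2 ∈ U2) (h2L : u2 ∈ L1)
    (h11 : u1 ≠ 1) (h21 : u2 ≠ 1) (h12 : u1 ≠ u2) :
    ⨆ i, W i ≤ L2 := by
  classical
  have hU : ∀ k, W k ≤ ⨆ i, W i := le_iSup W
  have hdis : ∀ k l, k ≠ l → ∀ x, x ∈ W k → x ∈ W l → x = 1 := by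
    intro k l hkl x hxk hxl
    have := hind.pairwiseDisjoint hkl
    exact Subgroup.disjoint_def.mp this hxk hxl
  -- elements of `U ⊓ L2` commute with the nontrivial elements of `U2 ⊓ L1`
  have hfix : ∀ t ∈ U2, t ∈ L1 → ∀ a ∈ ⨆ i, W i, a ∈ L2 → a * t = t * a := by
    intro t ht htL a ha haL
    have hc1 : a * t * a⁻¹ * t⁻¹ ∈ U2 :=
      U2.mul_mem (hnorm2 a haL t ht) (U2.inv_mem ht)
    have hc2 : a * t * a⁻¹ * t⁻¹ ∈ ⨆ i, W i := by
      have h3 := conj_mem_iSup_of_perm (hperm t htL) (Subgroup.inv_mem _ ha)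
      have h4 := Subgroup.mul_mem _ ha h3
      have e : a * t * a⁻¹ * t⁻¹ = a * (t * a⁻¹ * t⁻¹) := by group
      rw [e]; exact h4
    have h4 := hdisj _ hc2 hc1
    have : a * t = (a * t * a⁻¹ * t⁻¹) * (t * a) := by group
    rw [this, h4, one_mul]
  -- (A) each nontrivial element of `U2 ⊓ L1` (having a partner) normalizes every `W i`
  have hA : ∀ t1 t2 : G, t1 ∈ U2 → t1 ∈ L1 → t2 ∈ U2 → t2 ∈ L1 → t1 ≠ 1 → t2 ≠ 1 → t1 ≠ t2 →
      ∀ i, ∀ a ∈ W i, t1 * a * t1⁻¹ ∈ W i := by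
    intro t1 t2 ht1 ht1L ht2 ht2L ht11 ht21 ht12 i
    obtain ⟨j, hj⟩ := hperm t1 ht1L i
    by_cases hji : j = i
    · intro a ha
      rw [hji] at hj
      rw [← hj]; exact conj_mem_map_conj t1 ha
    · exfalso
      have ht3 : t1 * t2 ∈ U2 := U2.mul_mem ht1 ht2
      have ht3L : t1 * t2 ∈ L1 := L1.mul_mem ht1L ht2L
      have ht1i : t1⁻¹ = t1 := inv_eq_self_of_sq (hU2 t1 ht1)
      have ht2i : t2⁻¹ = t2 := inv_eq_self_of_sq (hU2 t2 ht2)
      have ht31 : t1 * t2 ≠ 1 := by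
        intro h
        apply ht12
        have : t1 = t2⁻¹ := eq_inv_of_mul_eq_one_left h
        rw [this, ht2i]
      have ht12c : t1 * t2 = t2 * t1 := comm_of_sq hU2 ht1 ht2
      obtain ⟨j2, hj2⟩ := hperm t2 ht2L i
      obtain ⟨j3, hj3⟩ := hperm (t1 * t2) ht3L i
      have hne : W i ≠ ⊥ := by
        intro h
        have h4 := hW4 i
        rw [h] at h4
        simp at h4
      obtain ⟨⟨a, ha⟩, ha1'⟩ := Subgroup.ne_bot_iff_exists_ne_one.mp hne
      have ha1 : a ≠ 1 := fun h => ha1' (Subtype.ext h)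
      have ha1m : t1 * a * t1⁻¹ ∈ W j := by rw [← hj]; exact conj_mem_map_conj t1 ha
      have ha2m : t2 * a * t2⁻¹ ∈ W j2 := by rw [← hj2]; exact conj_mem_map_conj t2 ha
      have ha3m : (t1 * t2) * a * (t1 * t2)⁻¹ ∈ W j3 := by
        rw [← hj3]; exact conj_mem_map_conj _ ha
      -- (i) a ∉ L2
      have haL : a ∉ L2 := by
        intro haL
        have hc := hfix t1 ht1 ht1L a (hU i ha) haL
        have e : t1 * a * t1⁻¹ = a := by rw [← hc]; group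
        rw [e] at ha1m
        exact ha1 (hdis j i hji a ha1m ha)
      -- (ii) a * a1 is fixed by t1, hence lies in L2, hence is fixed by t2
      have e2 : a * (t1 * a * t1⁻¹) = (t1 * a * t1⁻¹) * a :=
        hcomm i j (Ne.symm hji) a ha _ ha1m
      have e3 : t1 * (a * (t1 * a * t1⁻¹)) * t1⁻¹ = a * (t1 * a * t1⁻¹) := by
        calc t1 * (a * (t1 * a * t1⁻¹)) * t1⁻¹
            = (t1 * a * t1⁻¹) * (t1 * (t1 * a * t1⁻¹) * t1⁻¹) := by group
          _ = (t1 * a * t1⁻¹) * a := by rw [conj_conj_of_sq (hU2 t1 ht1)]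
          _ = a * (t1 * a * t1⁻¹) := e2.symm
      have haa1U : a * (t1 * a * t1⁻¹) ∈ ⨆ i, W i :=
        Subgroup.mul_mem _ (hU i ha) (hU j ha1m)
      have haa1L : a * (t1 * a * t1⁻¹) ∈ L2 :=
        hC t1 ht1 ht11 _ haa1U (comm_of_conj_eq e3)
      have hcomm2 := hfix t2 ht2 ht2L _ haa1U haa1L
      have hrel : (t2 * a * t2⁻¹) * ((t1 * t2) * a * (t1 * t2)⁻¹) = a * (t1 * a * t1⁻¹) := by
        have e : (t2 * a * t2⁻¹) * ((t1 * t2) * a * (t1 * t2)⁻¹)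
            = t2 * (a * (t1 * a * t1⁻¹)) * t2⁻¹ := by
          rw [ht12c]; group
        rw [e, ← hcomm2]; group
      by_cases hj2i : j2 = i
      · rw [hj2i] at ha2m
        have ha3j : (t1 * t2) * a * (t1 * t2)⁻¹ ∈ W j := by
          have e : (t1 * t2) * a * (t1 * t2)⁻¹ = t1 * (t2 * a * t2⁻¹) * t1⁻¹ := by group
          rw [e, ← hj]; exact conj_mem_map_conj t1 ha2m
        have hx : a⁻¹ * (t2 * a * t2⁻¹)
            = (t1 * a * t1⁻¹) * ((t1 * t2) * a * (t1 * t2)⁻¹)⁻¹ := by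
          have e : t2 * a * t2⁻¹
              = a * (t1 * a * t1⁻¹) * ((t1 * t2) * a * (t1 * t2)⁻¹)⁻¹ := by
            rw [← hrel]; group
          calc a⁻¹ * (t2 * a * t2⁻¹)
              = a⁻¹ * (a * (t1 * a * t1⁻¹) * ((t1 * t2) * a * (t1 * t2)⁻¹)⁻¹) := by rw [← e]
            _ = (t1 * a * t1⁻¹) * ((t1 * t2) * a * (t1 * t2)⁻¹)⁻¹ := by group
        have hm1 : a⁻¹ * (t2 * a * t2⁻¹) ∈ W i :=
          Subgroup.mul_mem _ (Subgroup.inv_mem _ ha) ha2m
        have hm2 : a⁻¹ * (t2 * a * t2⁻¹) ∈ W j := by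
          rw [hx]; exact Subgroup.mul_mem _ ha1m (Subgroup.inv_mem _ ha3j)
        have h6 := hdis i j (Ne.symm hji) _ hm1 hm2
        have h7 : t2 * a * t2⁻¹ = a := by
          have : t2 * a * t2⁻¹ = a * (a⁻¹ * (t2 * a * t2⁻¹)) := by group
          rw [this, h6, mul_one]
        exact haL (hC t2 ht2 ht21 a (hU i ha) (comm_of_conj_eq h7))
      · by_cases hj3i : j3 = i
        · rw [hj3i] at ha3m
          have ha2j : t2 * a * t2⁻¹ ∈ W j := by
            have e : t2 * a * t2⁻¹ = t1 * ((t1 * t2) * a * (t1 * t2)⁻¹) * t1⁻¹ := by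
              calc t2 * a * t2⁻¹ = (t1 * t1) * (t2 * a * t2⁻¹) * (t1 * t1)⁻¹ := by
                    rw [hU2 t1 ht1]; group
                _ = t1 * ((t1 * t2) * a * (t1 * t2)⁻¹) * t1⁻¹ := by group
            rw [e, ← hj]; exact conj_mem_map_conj t1 ha3m
          have e4 : (t2 * a * t2⁻¹)⁻¹ * a = a * (t2 * a * t2⁻¹)⁻¹ :=
            hcomm j i hji _ (Subgroup.inv_mem _ ha2j) a ha
          have hx : a⁻¹ * ((t1 * t2) * a * (t1 * t2)⁻¹)
              = (t2 * a * t2⁻¹)⁻¹ * (t1 * a * t1⁻¹) := by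
            have e : (t1 * t2) * a * (t1 * t2)⁻¹
                = (t2 * a * t2⁻¹)⁻¹ * a * (t1 * a * t1⁻¹) := by
              calc (t1 * t2) * a * (t1 * t2)⁻¹
                  = (t2 * a * t2⁻¹)⁻¹ * ((t2 * a * t2⁻¹) * ((t1 * t2) * a * (t1 * t2)⁻¹)) := by
                    group
                _ = (t2 * a * t2⁻¹)⁻¹ * (a * (t1 * a * t1⁻¹)) := by rw [hrel]
                _ = (t2 * a * t2⁻¹)⁻¹ * a * (t1 * a * t1⁻¹) := by group
            calc a⁻¹ * ((t1 * t2) * a * (t1 * t2)⁻¹)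
                = a⁻¹ * ((t2 * a * t2⁻¹)⁻¹ * a * (t1 * a * t1⁻¹)) := by rw [← e]
              _ = a⁻¹ * (a * (t2 * a * t2⁻¹)⁻¹ * (t1 * a * t1⁻¹)) := by rw [e4]
              _ = (t2 * a * t2⁻¹)⁻¹ * (t1 * a * t1⁻¹) := by group
          have hm1 : a⁻¹ * ((t1 * t2) * a * (t1 * t2)⁻¹) ∈ W i :=
            Subgroup.mul_mem _ (Subgroup.inv_mem _ ha) ha3m
          have hm2 : a⁻¹ * ((t1 * t2) * a * (t1 * t2)⁻¹) ∈ W j := by
            rw [hx]; exact Subgroup.mul_mem _ (Subgroup.inv_mem _ ha2j) ha1m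
          have h6 := hdis i j (Ne.symm hji) _ hm1 hm2
          have h7 : (t1 * t2) * a * (t1 * t2)⁻¹ = a := by
            have : (t1 * t2) * a * (t1 * t2)⁻¹
                = a * (a⁻¹ * ((t1 * t2) * a * (t1 * t2)⁻¹)) := by group
            rw [this, h6, mul_one]
          exact haL (hC (t1 * t2) ht3 ht31 a (hU i ha) (comm_of_conj_eq h7))
        · -- a lies in the join of the other W's
          have hle : ∀ k, k ≠ i → W k ≤ ⨆ (k) (_ : k ≠ i), W k := fun k hk =>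
            le_iSup₂ (f := fun k (_ : k ≠ i) => W k) k hk
          have e : a = (t2 * a * t2⁻¹) * ((t1 * t2) * a * (t1 * t2)⁻¹) * (t1 * a * t1⁻¹)⁻¹ := by
            rw [hrel]; group
          have hmem : a ∈ ⨆ (k) (_ : k ≠ i), W k := by
            rw [e]
            exact Subgroup.mul_mem _ (Subgroup.mul_mem _ (hle j2 hj2i ha2m) (hle j3 hj3i ha3m))
              (Subgroup.inv_mem _ (hle j hji ha1m))
          exact ha1 (Subgroup.disjoint_def.mp (hind i) ha hmem)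
  have hnorm : ∀ i, ∀ t ∈ U2, (∀ a ∈ W i, t * a * t⁻¹ ∈ W i) →
      t ∈ Subgroup.normalizer (W i : Set G) := by
    intro i t ht h
    rw [Subgroup.mem_normalizer_iff]
    intro x
    constructor
    · exact h x
    · intro hx
      have h5 := h _ hx
      rw [conj_conj_of_sq (hU2 t ht)] at h5
      exact h5
  -- (B) every W i lies in L2
  refine iSup_le fun i => ?_
  intro b hb
  by_contra hbL
  have hN1 := hnorm i u1 h1 (hA u1 u2 h1 h1L h2 h2L h11 h21 h12 i)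
  have hN2 := hnorm i u2 h2 (hA u2 u1 h2 h2L h1 h1L h21 h11 (Ne.symm h12) i)
  have hWc : ∀ w ∈ W i, ∀ w' ∈ W i, w * w' = w' * w :=
    fun w hw w' hw' => comm_of_sq (hW2 i) hw hw'
  have hn1 : ¬ ∀ w ∈ W i, u1 * w * u1⁻¹ = w := by
    intro h
    exact hbL (hC u1 h1 h11 b (hU i hb) (comm_of_conj_eq (h b hb)))
  have hn2 : ¬ ∀ w ∈ W i, u2 * w * u2⁻¹ = w := by
    intro h
    exact hbL (hC u2 h2 h21 b (hU i hb) (comm_of_conj_eq (h b hb)))
  have h3 := two_invol (hW4 i) (hW2 i) hWc hN1 hN2 (hU2 u1 h1) (hU2 u2 h2)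
    (comm_of_sq hU2 h1 h2) hn1 hn2 b hb
  have hu31 : u1 * u2 ≠ 1 := by
    intro h
    apply h12
    have : u1 = u2⁻¹ := eq_inv_of_mul_eq_one_left h
    rw [this, inv_eq_self_of_sq (hU2 u2 h2)]
  exact hbL (hC (u1 * u2) (U2.mul_mem h1 h2) hu31 b (hU i hb) (comm_of_conj_eq h3))

/-- An element of order at most 2 permuting the `W i` (independent, pairwise commuting
four-groups, at least two of them) commutes with two distinct nontrivial elements of the join. -/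
theorem exists_two_fixed {ι : Type v} (W : ι → Subgroup G)
    (hW4 : ∀ i, Nat.card ↥(W i) = 4) (hW2 : ∀ i, ∀ w ∈ W i, w * w = 1)
    (hcomm : ∀ i j, i ≠ j → ∀ a ∈ W i, ∀ b ∈ W j, a * b = b * a)
    (hind : iSupIndep W) (hk : ∃ i j : ι, i ≠ j) (t : G) (ht : t * t = 1)
    (hperm : ∀ i, ∃ j, (W i).map (MulAut.conj t).toMonoidHom = W j) :
    ∃ d1 ∈ ⨆ i, W i, ∃ d2 ∈ ⨆ i, W i, d1 ≠ 1 ∧ d2 ≠ 1 ∧ d1 ≠ d2 ∧
      d1 * t = t * d1 ∧ d2 * t = t * d2 := by
  classical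
  have hU : ∀ k, W k ≤ ⨆ i, W i := le_iSup W
  have hdis : ∀ k l, k ≠ l → ∀ x, x ∈ W k → x ∈ W l → x = 1 := by
    intro k l hkl x hxk hxl
    have := hind.pairwiseDisjoint hkl
    exact Subgroup.disjoint_def.mp this hxk hxl
  by_cases hmove : ∃ i0, ∃ a ∈ W i0, t * a * t⁻¹ ∉ W i0
  · obtain ⟨i0, a0, ha0, ha0'⟩ := hmove
    obtain ⟨j0, hj0⟩ := hperm i0
    have hji : j0 ≠ i0 := by
      intro h
      rw [h] at hj0
      apply ha0'
      rw [← hj0]; exact conj_mem_map_conj t ha0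
    obtain ⟨a, ha, b, hb, ha1, hb1, hab⟩ := exists_two_of_card_four (hW4 i0)
    have hc : ∀ w ∈ W i0, t * w * t⁻¹ ∈ W j0 := fun w hw => by
      rw [← hj0]; exact conj_mem_map_conj t hw
    have hfixed : ∀ w ∈ W i0, (w * (t * w * t⁻¹)) * t = t * (w * (t * w * t⁻¹)) := by
      intro w hw
      apply comm_of_conj_eq
      calc t * (w * (t * w * t⁻¹)) * t⁻¹ = (t * w * t⁻¹) * (t * (t * w * t⁻¹) * t⁻¹) := by group
        _ = (t * w * t⁻¹) * w := by rw [conj_conj_of_sq ht]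
        _ = w * (t * w * t⁻¹) := (hcomm i0 j0 (Ne.symm hji) w hw _ (hc w hw)).symm
    have hne : ∀ w ∈ W i0, w ≠ 1 → w * (t * w * t⁻¹) ≠ 1 := by
      intro w hw hw1 h
      have e : t * w * t⁻¹ = w⁻¹ := (inv_eq_of_mul_eq_one_right h).symm
      have h5 := hc w hw
      rw [e] at h5
      have h6 := hdis j0 i0 hji _ h5 (Subgroup.inv_mem _ hw)
      exact hw1 (inv_eq_one.mp h6)
    refine ⟨a * (t * a * t⁻¹), Subgroup.mul_mem _ (hU i0 ha) (hU j0 (hc a ha)),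
      b * (t * b * t⁻¹), Subgroup.mul_mem _ (hU i0 hb) (hU j0 (hc b hb)),
      hne a ha ha1, hne b hb hb1, ?_, hfixed a ha, hfixed b hb⟩
    intro h
    -- b⁻¹ a = (t b t⁻¹) (t a t⁻¹)⁻¹
    have hx : b⁻¹ * a = (t * b * t⁻¹) * (t * a * t⁻¹)⁻¹ := by
      have e : a = b * (t * b * t⁻¹) * (t * a * t⁻¹)⁻¹ := by rw [← h]; group
      calc b⁻¹ * a = b⁻¹ * (b * (t * b * t⁻¹) * (t * a * t⁻¹)⁻¹) := by rw [← e]
        _ = (t * b * t⁻¹) * (t * a * t⁻¹)⁻¹ := by group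
    have hm1 : b⁻¹ * a ∈ W i0 := Subgroup.mul_mem _ (Subgroup.inv_mem _ hb) ha
    have hm2 : b⁻¹ * a ∈ W j0 := by
      rw [hx]; exact Subgroup.mul_mem _ (hc b hb) (Subgroup.inv_mem _ (hc a ha))
    have h6 := hdis i0 j0 (Ne.symm hji) _ hm1 hm2
    apply hab
    have : a = b * (b⁻¹ * a) := by group
    rw [this, h6, mul_one]
  · push Not at hmove
    have hex : ∀ i, ∃ c ∈ W i, c ≠ 1 ∧ t * c * t⁻¹ = c := by
      intro i
      by_cases hc : ∀ w ∈ W i, t * w * t⁻¹ = w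
      · obtain ⟨a, ha, b, hb, ha1, hb1, hab⟩ := exists_two_of_card_four (hW4 i)
        exact ⟨a, ha, ha1, hc a ha⟩
      · have hN : t ∈ Subgroup.normalizer (W i : Set G) := by
          rw [Subgroup.mem_normalizer_iff]
          intro x
          constructor
          · exact hmove i x
          · intro hx
            have h5 := hmove i _ hx
            rw [conj_conj_of_sq ht] at h5
            exact h5
        have hWc : ∀ w ∈ W i, ∀ w' ∈ W i, w * w' = w' * w :=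
          fun w hw w' hw' => comm_of_sq (hW2 i) hw hw'
        obtain ⟨c, hcW, hc1, hcfix, -, -⟩ := invol_struct (hW4 i) (hW2 i) hWc hN ht hc
        exact ⟨c, hcW, hc1, hcfix⟩
    obtain ⟨i, j, hij⟩ := hk
    obtain ⟨c1, hc1W, hc11, hc1f⟩ := hex i
    obtain ⟨c2, hc2W, hc21, hc2f⟩ := hex j
    refine ⟨c1, hU i hc1W, c2, hU j hc2W, hc11, hc21, ?_, comm_of_conj_eq hc1f,
      comm_of_conj_eq hc2f⟩
    intro h
    rw [h] at hc1W
    exact hc21 (hdis i j hij c2 hc1W hc2W)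

/-- **Dichotomy lemma** (Step 5.3). -/
theorem dich [Finite G] {ι : Type v} [Finite ι] (W : ι → Subgroup G) (L : Subgroup G)
    (hW4 : ∀ i, Nat.card ↥(W i) = 4) (hW2 : ∀ i, ∀ w ∈ W i, w * w = 1)
    (hcomm : ∀ i j, i ≠ j → ∀ a ∈ W i, ∀ b ∈ W j, a * b = b * a) (hind : iSupIndep W)
    (hk : ∃ i j : ι, i ≠ j)
    (hperm : ∀ l ∈ L, ∀ i, ∃ j, (W i).map (MulAut.conj l).toMonoidHom = W j)
    (hP2 : ∀ u ∈ ⨆ i, W i, u ≠ 1 → Subgroup.centralizer ({u} : Set G) ≤ L)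
    (hP3 : ∀ u ∈ ⨆ i, W i, u ≠ 1 → ∀ g : G, g * u * g⁻¹ ∈ ⨆ i, W i → g ∈ L)
    (n : G) (hn : n ∉ L) (x : G) (hx : x ∈ ⨆ i, W i) (hx1 : x ≠ 1) (hxn : n * x * n⁻¹ ∈ L) :
    ∀ a ∈ ⨆ i, W i, ∀ b ∈ ⨆ i, W i, a * (n * b * n⁻¹) = (n * b * n⁻¹) * a := by
  classical
  obtain ⟨hUc, hUsq⟩ := iSup_comm_sq hW2 hcomm
  have hU : ∀ k, W k ≤ ⨆ i, W i := le_iSup W
  have hUn : (⨆ i, (W i).map (MulAut.conj n).toMonoidHom)
      = (⨆ i, W i).map (MulAut.conj n).toMonoidHom := (Subgroup.map_iSup _ _).symm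
  have hne1 : ∀ u : G, u ≠ 1 → n⁻¹ * u * n ≠ 1 := by
    intro u hu1 h
    apply hu1
    have : u = n * (n⁻¹ * u * n) * n⁻¹ := by group
    rw [this, h]; group
  -- U ∩ U^n = 1
  have hdisj : ∀ u ∈ ⨆ i, W i, u ∈ (⨆ i, W i).map (MulAut.conj n).toMonoidHom → u = 1 := by
    intro u hu hu'
    by_contra hu1
    rw [mem_conj_iff] at hu'
    apply hn
    apply hP3 (n⁻¹ * u * n) hu' (hne1 u hu1) n
    have : n * (n⁻¹ * u * n) * n⁻¹ = u := by group
    rw [this]; exact hu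
  -- centralizers of nontrivial elements of U^n lie in L^n
  have hC1 : ∀ u ∈ (⨆ i, W i).map (MulAut.conj n).toMonoidHom, u ≠ 1 → ∀ a ∈ ⨆ i, W i,
      a * u = u * a → a ∈ L.map (MulAut.conj n).toMonoidHom := by
    intro u hu hu1 a ha hau
    rw [mem_conj_iff] at hu ⊢
    apply hP2 _ hu (hne1 u hu1)
    rw [Subgroup.mem_centralizer_iff]
    intro y hy
    rw [Set.mem_singleton_iff] at hy
    subst hy
    calc n⁻¹ * u * n * (n⁻¹ * a * n) = n⁻¹ * (u * a) * n := by group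
      _ = n⁻¹ * (a * u) * n := by rw [hau]
      _ = n⁻¹ * a * n * (n⁻¹ * u * n) := by group
  have hC2 : ∀ u ∈ ⨆ i, W i, u ≠ 1 → ∀ a ∈ ⨆ i, (W i).map (MulAut.conj n).toMonoidHom,
      a * u = u * a → a ∈ L := by
    intro u hu hu1 a _ hau
    apply hP2 u hu hu1
    rw [Subgroup.mem_centralizer_iff]
    intro y hy
    rw [Set.mem_singleton_iff] at hy
    subst hy
    exact hau.symm
  -- L normalizes U, L^n normalizes U^n
  have hnormU : ∀ l ∈ L, ∀ u ∈ ⨆ i, W i, l * u * l⁻¹ ∈ ⨆ i, W i :=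
    fun l hl u hu => conj_mem_iSup_of_perm (hperm l hl) hu
  have hnormUn : ∀ l ∈ L.map (MulAut.conj n).toMonoidHom,
      ∀ u ∈ (⨆ i, W i).map (MulAut.conj n).toMonoidHom,
      l * u * l⁻¹ ∈ (⨆ i, W i).map (MulAut.conj n).toMonoidHom := by
    intro l hl u hu
    rw [mem_conj_iff] at hl hu ⊢
    have h5 := hnormU _ hl _ hu
    have e : n⁻¹ * (l * u * l⁻¹) * n = (n⁻¹ * l * n) * (n⁻¹ * u * n) * (n⁻¹ * l * n)⁻¹ := by
      group
    rw [e]; exact h5
  have hUnsq : ∀ u ∈ (⨆ i, W i).map (MulAut.conj n).toMonoidHom, u * u = 1 := by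
    intro u hu
    rw [mem_conj_iff] at hu
    have h5 := hUsq _ hu
    have e : u * u = n * ((n⁻¹ * u * n) * (n⁻¹ * u * n)) * n⁻¹ := by group
    rw [e, h5]; group
  -- the element x' = n x n⁻¹
  have hx'U : n * x * n⁻¹ ∈ (⨆ i, W i).map (MulAut.conj n).toMonoidHom :=
    conj_mem_map_conj n hx
  have hx'1 : n * x * n⁻¹ ≠ 1 := by
    intro h
    apply hx1
    have : x = n⁻¹ * (n * x * n⁻¹) * n := by group
    rw [this, h]; group
  have hx'sq : (n * x * n⁻¹) * (n * x * n⁻¹) = 1 := hUnsq _ hx'U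
  -- two distinct nontrivial elements of U ∩ L^n
  obtain ⟨d1, hd1U, d2, hd2U, hd11, hd21, hd12, hd1c, hd2c⟩ :=
    exists_two_fixed W hW4 hW2 hcomm hind hk (n * x * n⁻¹) hx'sq (hperm _ hxn)
  have hd1L := hC1 _ hx'U hx'1 d1 hd1U hd1c
  have hd2L := hC1 _ hx'U hx'1 d2 hd2U hd2c
  -- first application: U^n ≤ L
  have hUnL : (⨆ i, (W i).map (MulAut.conj n).toMonoidHom) ≤ L := by
    refine dich_half (fun i => (W i).map (MulAut.conj n).toMonoidHom)
      (L.map (MulAut.conj n).toMonoidHom) L (⨆ i, W i) ?_ ?_ ?_ ?_ ?_ hUsq hnormU ?_ hC2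
      d1 d2 hd1U hd1L hd2U hd2L hd11 hd21 hd12
    · intro i
      rw [card_conj]; exact hW4 i
    · rintro i w hw
      rw [mem_conj_iff] at hw
      have h5 := hW2 i _ hw
      have e : w * w = n * ((n⁻¹ * w * n) * (n⁻¹ * w * n)) * n⁻¹ := by group
      rw [e, h5]; group
    · intro i j hij a ha b hb
      rw [mem_conj_iff] at ha hb
      have h5 := hcomm i j hij _ ha _ hb
      calc a * b = n * ((n⁻¹ * a * n) * (n⁻¹ * b * n)) * n⁻¹ := by group
        _ = n * ((n⁻¹ * b * n) * (n⁻¹ * a * n)) * n⁻¹ := by rw [h5]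
        _ = b * a := by group
    · exact hind.map_orderIso (MulEquiv.mapSubgroup (MulAut.conj n))
    · intro l hl i
      rw [mem_conj_iff] at hl
      obtain ⟨j, hj⟩ := hperm _ hl i
      refine ⟨j, ?_⟩
      ext y
      rw [mem_conj_iff, mem_conj_iff, mem_conj_iff, ← hj, mem_conj_iff]
      have e : (n⁻¹ * l * n)⁻¹ * (n⁻¹ * y * n) * (n⁻¹ * l * n) = n⁻¹ * (l⁻¹ * y * l) * n := by
        group
      rw [e]
    · intro u hu hu'
      rw [hUn] at hu
      exact hdisj u hu' hu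
  -- second application: U ≤ L^n
  have hULn : (⨆ i, W i) ≤ L.map (MulAut.conj n).toMonoidHom := by
    obtain ⟨i, -, -⟩ := hk
    obtain ⟨a, ha, b, hb, ha1, hb1, hab⟩ := exists_two_of_card_four (hW4 i)
    have haU : n * a * n⁻¹ ∈ (⨆ i, W i).map (MulAut.conj n).toMonoidHom :=
      conj_mem_map_conj n (hU i ha)
    have hbU : n * b * n⁻¹ ∈ (⨆ i, W i).map (MulAut.conj n).toMonoidHom :=
      conj_mem_map_conj n (hU i hb)
    have hinj : ∀ y z : G, n * y * n⁻¹ = n * z * n⁻¹ → y = z := by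
      intro y z h
      have : y = n⁻¹ * (n * y * n⁻¹) * n := by group
      rw [this, h]; group
    refine dich_half W L (L.map (MulAut.conj n).toMonoidHom)
      ((⨆ i, W i).map (MulAut.conj n).toMonoidHom) hW4 hW2 hcomm hind hperm hUnsq hnormUn
      hdisj hC1 (n * a * n⁻¹) (n * b * n⁻¹) haU (hUnL (hUn ▸ haU)) hbU (hUnL (hUn ▸ hbU))
      ?_ ?_ ?_
    · intro h
      apply ha1
      apply hinj
      rw [h]; group
    · intro h
      apply hb1
      apply hinj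
      rw [h]; group
    · intro h
      exact hab (hinj a b h)
  -- conclusion
  intro a ha b hb
  have hbU : n * b * n⁻¹ ∈ (⨆ i, W i).map (MulAut.conj n).toMonoidHom :=
    conj_mem_map_conj n hb
  have hbL : n * b * n⁻¹ ∈ L := hUnL (hUn ▸ hbU)
  have haL := hULn ha
  have hc1 : a * (n * b * n⁻¹) * a⁻¹ * (n * b * n⁻¹)⁻¹
      ∈ (⨆ i, W i).map (MulAut.conj n).toMonoidHom :=
    Subgroup.mul_mem _ (hnormUn a haL _ hbU) (Subgroup.inv_mem _ hbU)
  have hc2 : a * (n * b * n⁻¹) * a⁻¹ * (n * b * n⁻¹)⁻¹ ∈ ⨆ i, W i := by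
    have h5 := hnormU _ hbL _ (Subgroup.inv_mem _ ha)
    have e : a * (n * b * n⁻¹) * a⁻¹ * (n * b * n⁻¹)⁻¹
        = a * ((n * b * n⁻¹) * a⁻¹ * (n * b * n⁻¹)⁻¹) := by group
    rw [e]; exact Subgroup.mul_mem _ ha h5
  have h6 := hdisj _ hc2 hc1
  have : a * (n * b * n⁻¹)
      = (a * (n * b * n⁻¹) * a⁻¹ * (n * b * n⁻¹)⁻¹) * ((n * b * n⁻¹) * a) := by group
  rw [this, h6, one_mul]

end Cfsg.Agent.Lib.Helper72.KS12
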