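import Mathlib
import Cfsg.Agent.S2946
import Cfsg.Agent.Lib.Helper2.KS12.PZ
import Cfsg.Agent.Lib.Helper11.ThompsonSylow

/-!
Kurzweil–Stellmacher chapter 12 cluster, S2951, Step 4 (helper72, for helper34's assembly):
a Sylow 2-subgroup `S` normalizing a `J(S)`-component `K` with `|Ω₁(Z(S))| = 2`,
`Ω₁(Z(S)) ≤ Ω₁(Z(J(S)))` and `K ≰ C_G(Ω₁(Z(S)))` satisfies `Ω₁(Z(S)) = Ω₁(Z(J(S)))` of order 2.
-/

set_option autoImplicit false

namespace Cfsg.Agent.Lib.Helper72.KS12

open Cfsg

universe u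

variable {G : Type u} [Group G]

/-- Conjugation by `s` preserves the centralizer of a set stable under conjugation by `s⁻¹`. -/
theorem conj_mem_centralizer_of_inv_conj_mem {X : Set G} {s y : G}
    (hX : ∀ x ∈ X, s⁻¹ * x * s ∈ X) (hy : y ∈ Subgroup.centralizer X) :
    s * y * s⁻¹ ∈ Subgroup.centralizer X := by
  rw [Subgroup.mem_centralizer_iff] at hy ⊢
  intro x hx
  have hc := hy _ (hX x hx)
  calc x * (s * y * s⁻¹) = s * ((s⁻¹ * x * s) * y) * s⁻¹ := by group
    _ = s * (y * (s⁻¹ * x * s)) * s⁻¹ := by rw [hc]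
    _ = s * y * s⁻¹ * x := by group

/-- `s⁻¹ x s ∈ A` for `s ∈ N(A)`, `x ∈ A`. -/
theorem inv_conj_mem_of_mem_normalizer {A : Subgroup G} {s x : G}
    (hs : s ∈ Subgroup.normalizer (A : Set G)) (hx : x ∈ A) : s⁻¹ * x * s ∈ A := by
  have h := (Subgroup.mem_normalizer_iff.mp (Subgroup.inv_mem _ hs) x).mp hx
  rwa [inv_inv] at h

/-- `s x s⁻¹ ∈ A ⊔ B` for `s ∈ N(A) ∩ N(B)`, `x ∈ A ⊔ B`. -/
theorem conj_mem_sup_of_mem_normalizer {A B : Subgroup G} {s x : G}
    (hA : s ∈ Subgroup.normalizer (A : Set G)) (hB : s ∈ Subgroup.normalizer (B : Set G))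
    (hx : x ∈ A ⊔ B) : s * x * s⁻¹ ∈ A ⊔ B := by
  have h : A ⊔ B ≤ (A ⊔ B).comap (MulAut.conj s).toMonoidHom := by
    refine sup_le ?_ ?_
    · intro a ha
      rw [Subgroup.mem_comap]
      exact Subgroup.mem_sup_left ((Subgroup.mem_normalizer_iff.mp hA a).mp ha)
    · intro b hb
      rw [Subgroup.mem_comap]
      exact Subgroup.mem_sup_right ((Subgroup.mem_normalizer_iff.mp hB b).mp hb)
  exact h hx

/-- A nontrivial subgroup `U` of a `p`-group `P` normalized by `P` contains a non-identity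
element centralized by `P`. -/
theorem exists_central_of_le_normalizer {p : ℕ} [Fact p.Prime] [Finite G] {P U : Subgroup G}
    (hP : IsPGroup p ↥P) (hUP : U ≤ P) (hU1 : U ≠ ⊥)
    (hn : P ≤ Subgroup.normalizer (U : Set G)) :
    ∃ z ∈ U, z ≠ 1 ∧ ∀ x ∈ P, x * z = z * x := by
  classical
  let _inst : MulAction ↥P ↥U :=
    { smul := fun s y => ⟨(s : G) * y * (s : G)⁻¹,
        (Subgroup.mem_normalizer_iff.mp (hn s.2) y).mp y.2⟩
      one_smul := fun y => by
        apply Subtype.ext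
        show ((1 : ↥P) : G) * y * ((1 : ↥P) : G)⁻¹ = y
        simp
      mul_smul := fun a b y => by
        apply Subtype.ext
        show ((a * b : ↥P) : G) * y * ((a * b : ↥P) : G)⁻¹ = (a : G) * ((b : G) * y * (b : G)⁻¹) * (a : G)⁻¹
        simp [mul_assoc] }
  have hUp : p ∣ Nat.card ↥U := by
    rcases (hP.to_le hUP).card_eq_or_dvd with h | h
    · exact absurd (Subgroup.card_eq_one.mp h) hU1
    · exact h
  have h1 : (1 : ↥U) ∈ MulAction.fixedPoints ↥P ↥U := by
    intro g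
    apply Subtype.ext
    show (g : G) * ((1 : ↥U) : G) * (g : G)⁻¹ = ((1 : ↥U) : G)
    simp
  obtain ⟨b, hb, hb1⟩ := hP.exists_fixed_point_of_prime_dvd_card_of_fixed_point ↥U hUp h1
  refine ⟨b, b.2, fun h => hb1 (Subtype.ext h.symm), fun x hx => ?_⟩
  have h2 : x * (b : G) * x⁻¹ = b := congrArg Subtype.val (hb ⟨x, hx⟩)
  calc x * (b : G) = x * b * x⁻¹ * x := by group
    _ = b * x := by rw [h2]

/-- **Step 4 of S2951** (one component). -/
theorem alt1_of_normalizes [Finite G] (hL : IsCharacteristicTwoType G)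
    (hN : ∀ N : Subgroup G, IsTwoLocal N → Group.IsSolvable ↥N)
    (hZ : ∀ S : Sylow 2 G, Subgroup.centralizer (omegaCenterOf (S : Subgroup G) : Set G) ≤
      Subgroup.normalizer ((S : Subgroup G) : Set G))
    (S : Sylow 2 G) (K : Subgroup G) (hK : IsJComponent (S : Subgroup G) K)
    (hS1 : (S : Subgroup G) ≠ ⊥)
    (hSK : (S : Subgroup G) ≤ Subgroup.normalizer (K : Set G))
    (hZ2 : Nat.card ↥(omegaCenterOf (S : Subgroup G)) = 2)
    (hZZ₀ : omegaCenterOf (S : Subgroup G) ≤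
      omegaCenterOf (thompsonSubgroupOf 2 (S : Subgroup G)))
    (hKZ : ¬ K ≤ Subgroup.centralizer (omegaCenterOf (S : Subgroup G) : Set G)) :
    omegaCenterOf (S : Subgroup G) = omegaCenterOf (thompsonSubgroupOf 2 (S : Subgroup G)) ∧
      Nat.card ↥(omegaCenterOf (thompsonSubgroupOf 2 (S : Subgroup G))) = 2 := by
  classical
  have _i2 : Fact (Nat.Prime 2) := ⟨Nat.prime_two⟩
  obtain ⟨h2, hsplit⟩ := Cfsg.Agent.S2946.result hL hN hZ (S : Subgroup G) S.isPGroup' hS1 K hK
    (omegaCenterOf (thompsonSubgroupOf 2 (S : Subgroup G))) rfl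
  have hJS : thompsonSubgroupOf 2 (S : Subgroup G) ≤ (S : Subgroup G) :=
    Cfsg.Agent.Lib.Helper11.thompsonSubgroupOf_le 2 _
  have hnJ : ∀ s ∈ (S : Subgroup G),
      s ∈ Subgroup.normalizer (thompsonSubgroupOf 2 (S : Subgroup G) : Set G) := fun s hs =>
    Cfsg.Agent.Lib.Helper11.normalizer_le_normalizer_thompsonSubgroupOf 2 _
      (Subgroup.le_normalizer hs)
  -- the subgroup `Y` is trivial
  have hYbot : omegaCenterOf (thompsonSubgroupOf 2 (S : Subgroup G)) ⊓
      ((K ⊔ thompsonSubgroupOf 2 (S : Subgroup G)) ⊓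
        Subgroup.centralizer ((K ⊔ thompsonSubgroupOf 2 (S : Subgroup G)) : Set G)) = ⊥ := by
    by_contra hne
    have hYS : omegaCenterOf (thompsonSubgroupOf 2 (S : Subgroup G)) ⊓
      ((K ⊔ thompsonSubgroupOf 2 (S : Subgroup G)) ⊓
        Subgroup.centralizer ((K ⊔ thompsonSubgroupOf 2 (S : Subgroup G)) : Set G)) ≤
        (S : Subgroup G) :=
      inf_le_left.trans ((Cfsg.Agent.Lib.Helper2.KS12.omegaCenterOf_le _).trans hJS)
    have hnorm : (S : Subgroup G) ≤ Subgroup.normalizer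
        ((omegaCenterOf (thompsonSubgroupOf 2 (S : Subgroup G)) ⊓
          ((K ⊔ thompsonSubgroupOf 2 (S : Subgroup G)) ⊓
          Subgroup.centralizer ((K ⊔ thompsonSubgroupOf 2 (S : Subgroup G)) : Set G)) :
          Subgroup G) : Set G) := by
      -- conjugation by elements of `S` preserves `Y`
      have key : ∀ s ∈ (S : Subgroup G), ∀ y ∈
          omegaCenterOf (thompsonSubgroupOf 2 (S : Subgroup G)) ⊓
          ((K ⊔ thompsonSubgroupOf 2 (S : Subgroup G)) ⊓
          Subgroup.centralizer ((K ⊔ thompsonSubgroupOf 2 (S : Subgroup G)) : Set G)),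
          s * y * s⁻¹ ∈ omegaCenterOf (thompsonSubgroupOf 2 (S : Subgroup G)) ⊓
          ((K ⊔ thompsonSubgroupOf 2 (S : Subgroup G)) ⊓
          Subgroup.centralizer ((K ⊔ thompsonSubgroupOf 2 (S : Subgroup G)) : Set G)) := by
        intro s hs y hy
        obtain ⟨hy0, hyKJ, hyC⟩ := hy
        have hsK := hSK hs
        have hsJ := hnJ s hs
        refine ⟨?_, ?_, ?_⟩
        · apply Cfsg.Agent.Lib.Helper2.KS12.mem_omegaCenterOf
          · exact (Subgroup.mem_normalizer_iff.mp hsJ y).mp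
              (Cfsg.Agent.Lib.Helper2.KS12.omegaCenterOf_le _ hy0)
          · exact conj_mem_centralizer_of_inv_conj_mem
              (fun x hx => inv_conj_mem_of_mem_normalizer hsJ hx)
              (Cfsg.Agent.Lib.Helper2.KS12.omegaCenterOf_le_centralizer _ hy0)
          · have h := Cfsg.Agent.Lib.Helper2.KS12.omegaCenterOf_sq _ hy0
            rw [conj_pow, h, mul_one, mul_inv_cancel]
        · exact conj_mem_sup_of_mem_normalizer hsK hsJ hyKJ
        · refine conj_mem_centralizer_of_inv_conj_mem ?_ hyC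
          intro x hx
          rcases hx with hx | hx
          · exact Or.inl (inv_conj_mem_of_mem_normalizer hsK hx)
          · exact Or.inr (inv_conj_mem_of_mem_normalizer hsJ hx)
      intro s hs
      rw [Subgroup.mem_normalizer_iff]
      intro y
      refine ⟨fun hy => key s hs y hy, fun hy => ?_⟩
      have h := key s⁻¹ (Subgroup.inv_mem _ hs) _ hy
      have e : s⁻¹ * (s * y * s⁻¹) * s⁻¹⁻¹ = y := by group
      rwa [e] at h
    obtain ⟨y, hyY, hy1, hyc⟩ := exists_central_of_le_normalizer S.isPGroup' hYS hne hnorm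
    have hy2 : y ^ 2 = 1 := Cfsg.Agent.Lib.Helper2.KS12.omegaCenterOf_sq _ hyY.1
    have hyZ : y ∈ omegaCenterOf (S : Subgroup G) := by
      refine Cfsg.Agent.Lib.Helper2.KS12.mem_omegaCenterOf (hYS hyY) ?_ hy2
      rw [Subgroup.mem_centralizer_iff]
      exact hyc
    have hzp : Subgroup.zpowers y ≤ omegaCenterOf (S : Subgroup G) :=
      Subgroup.zpowers_le.mpr hyZ
    have hcard : Nat.card ↥(Subgroup.zpowers y) = 2 := by
      rw [Nat.card_zpowers]
      exact orderOf_eq_prime hy2 hy1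
    have heq : Subgroup.zpowers y = omegaCenterOf (S : Subgroup G) :=
      Subgroup.eq_of_le_of_card_ge hzp (by rw [hcard, hZ2])
    apply hKZ
    intro k hk
    rw [Subgroup.mem_centralizer_iff]
    intro z hz
    have hzY := (Subgroup.zpowers_le.mpr hyY) (heq ▸ hz)
    exact (Subgroup.mem_centralizer_iff.mp hzY.2.2 k (Or.inl hk)).symm
  rw [hYbot, bot_sup_eq] at hsplit
  have hcard : Nat.card ↥(omegaCenterOf (thompsonSubgroupOf 2 (S : Subgroup G))) = 2 := by
    rw [hsplit] at h2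
    exact h2
  exact ⟨Subgroup.eq_of_le_of_card_ge hZZ₀ (by rw [hcard, hZ2]), hcard⟩

end Cfsg.Agent.Lib.Helper72.KS12
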